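import Cfsg.Agent.Lib.Helper3.Stcs6

set_option autoImplicit false
set_option maxRecDepth 100000

namespace Cfsg.Agent.Lib.Helper3.M11o

open Cfsg.Agent.Lib.Helper11 Cfsg.Agent.Lib.Helper3

set_option maxHeartbeats 0

noncomputable def ntl : List (List (ℕ × ℕ)) := [[], [(0x80000000, 32), (0x800100008000, 16), (0x80008100810000, 8), (0x9090809090000, 4), (0x33332333332000, 2), (0x55554555554154, 1), (0x2000002000, 2), (0x800000000, 4), (0x80000000000000, 8), (0x8000, 16), (0x80000000, 32)], [(0xdbd91049, 32), (0x232a00009d42, 16), (0xb9003f00a80094, 8), (0xa0f0d01050e0a0a, 4), (0x2011231210011221, 2), (0x1144010100140041, 1), (0x220020000000000, 2), (0x2080c0404060c0c, 4), (0x980060009400d0, 8), (0xf8b00000bd52, 16), (0xdbd4146e, 32)], [(0x242beb91, 32), (0xac560000f3c5, 16), (0xa000d40005003e, 8), (0x7030d0300070b, 4), (0x13211323320010, 2), (0x11004410015110, 1), (0x2002220020220, 2), (0xa04080a0a000a, 4), (0x8c008400a60028, 8), (0x8c400000aa50, 16), (0x2426efb6, 32)], [(0x80000000, 32), (0x800100008000, 16), (0x80008100810000,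 8), (0x9090809090000, 4), (0x33332333332000, 2), (0x55554555554154, 1), (0x2000002000, 2), (0x800000000, 4), (0x80000000000000, 8), (0x8000, 16), (0x80000000, 32)], [(0x967f7ae2, 32), (0x8d09000073f0, 16), (0xb1003600580000, 8), (0xb0c0804040606, 4), (0x220120103210310, 2), (0x1050040414014004, 1), (0x202000002, 2), (0x202080e0406060a, 4), (0xa000d2000200a4, 8), (0x1f3400005bea, 16), (0x9675fbfc, 32)], [(0x9675fbfc, 32), (0x960a00005bea, 16), (0xd400db000a00a4, 8), (0x20300020406060a, 4), (0x1020110201230312, 2), (0x1001414011044004, 1), (0x20000, 2), (0x602080004040606, 4), (0xd6003a00500000, 8), (0x644000073f0, 16), (0x967f7ae2, 32)], [(0x80000000, 32), (0x800100008000, 16), (0x80008100810000, 8), (0x9090809090000, 4), (0x33332333332000, 2), (0x55554555554154, 1), (0x2000002000, 2), (0x800000000, 4), (0x80000000000000, 8), (0x8000, 16), (0x80000000, 32)], [(0x20000000, 32), (0xe00000002000, 16), (0xe00021002100c0, 8), (0x5030b07020c0c, 4), (0x2033002111000330, 2), (0x4000155541414554, 1), (0x2000000022000000, 2), (0x408020c0c,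 4), (0xe00000000000c0, 8), (0xe00000002000, 16), (0x20000000, 32)]]
noncomputable def INV : ℕ := 9042185489440
abbrev deg : ℕ := 55

theorem setup : NetSetup ntl deg 6 INV 8 where
  hok := by decide +kernel
  hstab := by decide +kernel
  hlen := by decide +kernel
  h0 := by decide +kernel
  hINV := by decide +kernel
  hINV0 := by decide +kernel
  htriv := by decide +kernel

end Cfsg.Agent.Lib.Helper3.M11o
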